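import Mathlib
import Cfsg.Agent.Misc.SpecCubic

/-! Roots of cubics and scalar powers of elements satisfying a cubic equation. -/

set_option autoImplicit false

namespace Cfsg.Agent.Misc.Spec

open Polynomial

theorem map_cubicSeq {R S : Type*} [CommRing R] [CommRing S] (f : R →+* S) (t s d : R) (k : ℕ) :
    cubicSeq (f t) (f s) (f d) k =
      (f (cubicSeq t s d k).1, f (cubicSeq t s d k).2.1, f (cubicSeq t s d k).2.2) := by
  induction k with
  | zero => simp [cubicSeq]
  | succ k ih => simp [cubicSeq, ih]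

variable {K : Type*} [Field K]

theorem exists_cubic_roots [IsAlgClosed K] (t s d : K) :
    ∃ a b c : K, t = a + b + c ∧ s = a * b + b * c + c * a ∧ d = a * b * c := by
  obtain ⟨a, ha⟩ := IsAlgClosed.exists_root (C 1 * X ^ 3 + C (-t) * X ^ 2 + C s * X + C (-d))
    (by rw [degree_cubic one_ne_zero]; decide)
  obtain ⟨b, hb⟩ := IsAlgClosed.exists_root (C 1 * X ^ 2 + C (-(t - a)) * X + C (s - a * (t - a)))
    (by rw [degree_quadratic one_ne_zero]; decide)
  simp only [IsRoot.def, eval_add, eval_mul, eval_C, eval_pow, eval_X] at ha hb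
  refine ⟨a, b, t - a - b, by ring, by linear_combination hb, ?_⟩
  linear_combination a * hb - ha

theorem third_root {t s d a b : K} (ha : a ^ 3 = t * a ^ 2 - s * a + d)
    (hb : b ^ 3 = t * b ^ 2 - s * b + d) (hab : a ≠ b) :
    s = a * b + b * (t - a - b) + (t - a - b) * a ∧ d = a * b * (t - a - b) := by
  have h : s = a * b + b * (t - a - b) + (t - a - b) * a := by
    apply mul_left_cancel₀ (sub_ne_zero.2 hab)
    linear_combination ha - hb
  exact ⟨h, by linear_combination a * h - ha⟩

theorem root_cases {a b c x : K}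
    (hx : x ^ 3 = (a + b + c) * x ^ 2 - (a * b + b * c + c * a) * x + a * b * c) :
    x = a ∨ x = b ∨ x = c := by
  have : (x - a) * ((x - b) * (x - c)) = 0 := by linear_combination hx
  simpa only [mul_eq_zero, sub_eq_zero] using this

theorem pow_eq_cubicSeq_root {t s d a : K} (ha : a ^ 3 = t * a ^ 2 - s * a + d) (k : ℕ) :
    a ^ k = (cubicSeq t s d k).1 + (cubicSeq t s d k).2.1 * a + (cubicSeq t s d k).2.2 * (a * a) := by
  simpa using pow_eq_cubicSeq_of (R := K) a (t := t) (s := s) (d := d) (by simpa using ha) k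

variable {M : Type*} [Ring M] [Algebra K M]

theorem pow_eq_smul_of_distinct (A : M) {a b c μ : K} {N : ℕ}
    (h : A ^ 3 = (a + b + c) • A ^ 2 - (a * b + b * c + c * a) • A + (a * b * c) • (1 : M))
    (hab : a ≠ b) (hac : a ≠ c) (hbc : b ≠ c) (ha : a ^ N = μ) (hb : b ^ N = μ) (hc : c ^ N = μ) :
    A ^ N = μ • (1 : M) := by
  have e := pow_eq_cubicSeq_of A h N
  rw [pow_eq_cubicSeq_root (t := a + b + c) (s := a * b + b * c + c * a) (d := a * b * c)
    (by ring)] at ha hb hc
  generalize cubicSeq (a + b + c) (a * b + b * c + c * a) (a * b * c) N = r at *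
  obtain ⟨u, v, w⟩ := r
  simp only at *
  have h1 : v + w * (a + b) = 0 := by
    apply mul_left_cancel₀ (sub_ne_zero.2 hab); linear_combination ha - hb
  have h2 : v + w * (a + c) = 0 := by
    apply mul_left_cancel₀ (sub_ne_zero.2 hac); linear_combination ha - hc
  have hw : w = 0 := by
    apply mul_left_cancel₀ (sub_ne_zero.2 hbc); linear_combination h1 - h2
  have hv : v = 0 := by rw [hw] at h1; simpa using h1
  have hu : u = μ := by rw [hv, hw] at ha; simpa using ha
  rw [e, hu, hv, hw]; simp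

theorem pow_eq_smul_of_char (p : ℕ) [hp : Fact p.Prime] [CharP K p] (h3 : 3 ≤ p) (A : M)
    {a b c μ : K} {N : ℕ}
    (h : A ^ 3 = (a + b + c) • A ^ 2 - (a * b + b * c + c * a) • A + (a * b * c) • (1 : M))
    (ha : a ^ N = μ) (hb : b ^ N = μ) (hc : c ^ N = μ) :
    A ^ (p * N) = μ ^ p • (1 : M) := by
  have d : ∀ x : K, x ^ N = μ → X - C x ∣ X ^ N - C μ := fun x hx =>
    dvd_iff_isRoot.2 (by simp [hx])
  have h1 : (X - C a) * (X - C b) * (X - C c) ∣ (X ^ N - C μ) ^ p := by
    refine Dvd.dvd.trans ?_ (pow_dvd_pow _ h3)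
    rw [pow_succ, pow_two]
    exact mul_dvd_mul (mul_dvd_mul (d a ha) (d b hb)) (d c hc)
  obtain ⟨Q, hQ⟩ := h1
  have h2 : aeval A ((X - C a) * (X - C b) * (X - C c)) = 0 := by
    have : (X - C a) * (X - C b) * (X - C c) = X ^ 3 - (C (a + b + c) * X ^ 2 -
      C (a * b + b * c + c * a) * X + C (a * b * c)) := by
      simp only [map_add, map_mul]; ring
    rw [this]
    simp only [map_sub, map_add (aeval A), map_mul (aeval A), map_pow, aeval_X, aeval_C]
    rw [h, sub_eq_zero]
    simp only [Algebra.smul_def, mul_one]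
  have h4 := congrArg (aeval A) hQ
  rw [map_mul, h2, zero_mul, sub_pow_char, ← pow_mul, ← C_pow] at h4
  simp only [map_sub, map_pow (aeval A), aeval_X, aeval_C] at h4
  rw [mul_comm, Algebra.smul_def, mul_one]
  exact sub_eq_zero.1 h4

theorem cast_eq_zero_of_double_root {a c e : K} {k : ℕ} (ha : a ≠ 0)
    (h : cubicSeq (a + a + c) (a * a + a * c + c * a) (a * a * c) k = (e, 0, 0)) : (k : K) = 0 := by
  have h1 := pow_eq_cubicSeq_of (R := K) (M := DualNumber K) (TrivSqZeroExt.inl a + DualNumber.eps)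
    (t := a + a + c) (s := a * a + a * c + c * a) (d := a * a * c) (by
      ext <;> simp <;> ring) k
  rw [h] at h1
  have h2 := congrArg TrivSqZeroExt.snd h1
  simp at h2
  rcases h2 with h2 | h2
  · exact h2
  · exact absurd h2.1 ha

end Cfsg.Agent.Misc.Spec
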